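import Cfsg.Agent.H461.Cov.HSDef

/-!
# S2499, HS: the checks (helper461)
-/

set_option autoImplicit false
set_option maxRecDepth 100000

namespace Cfsg.Agent.H461.Cov.HS

open Cfsg.Agent.SporadicA.PermTab

theorem chkA : allB (okJ tA JA) 5775 = true := by decide +kernel

end Cfsg.Agent.H461.Cov.HS
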