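import Cfsg.Agent.H461.Cov.HSDef

/-!
# S2499, HS: the checks (helper461)
-/

set_option autoImplicit false
set_option maxRecDepth 100000

namespace Cfsg.Agent.H461.Cov.HS

open Cfsg.Agent.SporadicA.PermTab

theorem chkC1 : allB okC1 5775 = true := by decide +kernel
theorem chkC2 : allB okC2 5775 = true := by decide +kernel
theorem chkX : allB (fun a => allB (okX a) 30) 30 = true := by decide +kernel
theorem chkY : allB okY 15 = true := by decide +kernel
/-- the powers -/
theorem chkYP : allB (fun a => allB (fun i => Nat.beq (l7 (yy (a + 1)) i) (l7 (yy 1) (l7 (yy a) i))) 100) 14 = true := by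
  decide +kernel
theorem chkXP : allB (fun a => allB (fun i => Nat.beq (l7 (xx (a + 1)) i) (l7 (xx 1) (l7 (xx a) i))) 100) 7 = true := by
  decide +kernel
theorem chkX8 : allB (fun i => Nat.beq (l7 (xx 1) (l7 (xx 7) i)) i) 100 = true := by decide +kernel
theorem chkY0 : allB (fun i => Nat.beq (l7 (yy 0) i) i) 100 = true := by decide +kernel
theorem chkX0 : allB (fun i => Nat.beq (l7 (xx 0) i) i) 100 = true := by decide +kernel
/-- `u ^ 4 = 1` -/
theorem chkU4 : allB (fun i => Nat.beq (it7 [U 0] i 4) i) 100 = true := by decide +kernel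

end Cfsg.Agent.H461.Cov.HS
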