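import Cfsg.Agent.H461.Cov.HSDat

/-!
# S2499, HS: the check functions (helper461)
-/

set_option autoImplicit false

namespace Cfsg.Agent.H461.Cov.HS

open Cfsg.Agent.SporadicA.PermTab

/-- entry `i` of the table `P` (7 bits per entry) -/
def l7 (P i : ℕ) : ℕ := Nat.land (Nat.shiftRight P (Nat.mul 7 i)) 127

/-- the element number `i` -/
noncomputable def U (i : ℕ) : ℕ :=
  Nat.land (Nat.shiftRight (getT 0 blk (Nat.shiftRight i 8)) (Nat.mul 700 (Nat.land i 255)))
    (Nat.sub (Nat.pow 2 700) 1)

/-- entry `i` of a table with 14 bits per entry -/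
def l14 (J i : ℕ) : ℕ := Nat.land (Nat.shiftRight J (Nat.mul 14 i)) 16383

/-- image under a list of tables, the first one applied first -/
noncomputable def ev7 (L : List ℕ) : ℕ → ℕ := List.rec (fun j => j) (fun P _ ih j => ih (l7 P j)) L

/-- iterated -/
noncomputable def it7 (L : List ℕ) (p k : ℕ) : ℕ := Nat.rec p (fun _ ih => ev7 L ih) k

/-- `Q = G P G⁻¹` -/
noncomputable def okE (G P Q : ℕ) : Bool := allB (fun x => Nat.beq (l7 Q (l7 G x)) (l7 G (l7 P x))) 100

/-- `Q⁻¹ = G P G⁻¹` -/
noncomputable def okO (G P Q : ℕ) : Bool := allB (fun x => Nat.beq (l7 Q (l7 G (l7 P x))) (l7 G x)) 100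

/-- the action of a generator on the elements -/
noncomputable def okJ (G J i : ℕ) : Bool :=
  band (Nat.blt (Nat.shiftRight (l14 J i) 1) 5775)
    (cond (Nat.beq (Nat.land (l14 J i) 1) 0) (okE G (U i) (U (Nat.shiftRight (l14 J i) 1)))
      (okO G (U i) (U (Nat.shiftRight (l14 J i) 1))))

/-- a cycle of length `k` (prime) -/
noncomputable def okK (L : List ℕ) (p k : ℕ) : Bool :=
  band (Nat.beq (it7 L p k) p) (nbeq (ev7 L p) p)

/-- a cycle of length different from 1, 2, 3, 5 -/
noncomputable def okN (L : List ℕ) (p : ℕ) : Bool :=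
  band (nbeq (it7 L p 1) p) (band (nbeq (it7 L p 2) p) (band (nbeq (it7 L p 3) p) (nbeq (it7 L p 5) p)))

/-- membership -/
noncomputable def inL (i : ℕ) (L : List ℕ) : Bool := List.rec false (fun a _ ih => cond (Nat.beq i a) true ih) L

/-- the certificate for the pair with the element of order 15 -/
noncomputable def okC1 (i : ℕ) : Bool :=
  cond (inL i exc) true
    (band (Nat.blt (Nat.land (Nat.shiftRight (l14 C1 i) 1) 127) 100)
      (cond (Nat.beq (Nat.land (l14 C1 i) 1) 0)
        (okK (W1 (U i) (Nat.shiftRight (l14 C1 i) 8)) (Nat.land (Nat.shiftRight (l14 C1 i) 1) 127) 7)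
        (okK (W1 (U i) (Nat.shiftRight (l14 C1 i) 8)) (Nat.land (Nat.shiftRight (l14 C1 i) 1) 127) 11)))

/-- the table of a letter -/
noncomputable def tk (u a : ℕ) : ℕ := cond (Nat.beq a 8) u (xx a)

/-- the tables of the inverse of a letter -/
noncomputable def tki (u a : ℕ) : List ℕ := cond (Nat.beq a 8) [u, u, u] [xx (Nat.sub 8 a)]

/-- the tables of a word -/
noncomputable def fwd (u : ℕ) (t : List ℕ) : List ℕ := List.rec [] (fun a _ ih => tk u a :: ih) t

/-- the tables of the inverse of a word -/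
noncomputable def bwd (u : ℕ) (t : List ℕ) : List ℕ := List.rec [] (fun a _ ih => ih ++ tki u a) t

/-- the product of `u` and its conjugate -/
noncomputable def W2 (u k : ℕ) : List ℕ := u :: (bwd u (T2 k) ++ (u :: fwd u (T2 k)))

/-- the certificate for the pair with the element of order 8 -/
noncomputable def okC2 (i : ℕ) : Bool :=
  cond (Nat.beq i 3789) true
    (band (Nat.blt (Nat.land (l14 C2 i) 127) 100)
      (okN (W2 (U i) (Nat.shiftRight (l14 C2 i) 7)) (Nat.land (l14 C2 i) 127)))

/-- `L ^ k` fixes the base -/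
noncomputable def okB (L : List ℕ) (k : ℕ) : Bool :=
  List.rec true (fun p _ ih => band (Nat.beq (it7 L p k) p) ih) [0, 1, 3, 8, 2]

/-- `u` or its inverse -/
noncomputable def sg (u s : ℕ) : List ℕ := cond (Nat.beq s 0) [u] [u, u, u]

/-- the order of the product is 1, 2, 3 or 5 -/
noncomputable def okR (L : List ℕ) : Bool :=
  cond (okB L 1) true (cond (okB L 2) true (cond (okB L 3) true (okB L 5)))

/-- the pairs of exceptional elements: `a`, `b < 30` -/
noncomputable def okX (a b : ℕ) : Bool :=
  okR (sg (U (getT 0 exc (Nat.shiftRight a 1))) (Nat.land a 1) ++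
    sg (U (getT 0 exc (Nat.shiftRight b 1))) (Nat.land b 1))

/-- the element of order 15 does not normalise -/
noncomputable def okY (a : ℕ) : Bool :=
  cond (okE (yy 1) (U (getT 0 exc a)) (U (getT 0 exc a))) false
    (cond (okO (yy 1) (U (getT 0 exc a)) (U (getT 0 exc a))) false true)

end Cfsg.Agent.H461.Cov.HS
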