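import Cfsg.Agent.H461.Cov.HSSnd

/-!
# S2499, HS: the subgroups meeting the classes of `y`, `x`, `u` (helper461)

`y` of order 15, `x` of order 8, `u` of order 4: a subgroup which meets these three classes has an element of order
divisible by 7 or 11.
-/

set_option autoImplicit false
set_option maxRecDepth 100000

namespace Cfsg.Agent.H461.Cov.HS

open Subgroup Equiv
open Cfsg.Agent.SporadicA.PermTab
open Cfsg.Agent.HN.HS100

/-- `0, 1, 3, 8, 2` is a base -/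
theorem base_triv {g : Perm (Fin 100)} (hg : g ∈ Q) (h0 : g 0 = 0) (h1 : g 1 = 1) (h3 : g 3 = 3) (h8 : g 8 = 8)
    (h2 : g 2 = 2) : g = 1 := by
  by_contra hne
  have hm : g ∈ ps Q4 2 := ⟨⟨⟨⟨⟨hg, h0⟩, h1⟩, h3⟩, h8⟩, h2⟩
  have h5 : 2 ≤ Nat.card (ps Q4 2) := by
    have : Nontrivial (ps Q4 2) := ⟨⟨⟨g, hm⟩, 1, fun h => hne (congrArg Subtype.val h)⟩⟩
    exact Finite.one_lt_card
  have h4 : 3 * 2 ≤ Nat.card Q4 :=
    card_ge_of_chk (x := 2) (L := [s10]) in10 (by intro P hP; rw [List.mem_singleton.1 hP]; exact in10)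
      (C := oc4) (by decide +kernel) (by decide +kernel) h5
  have h3 : 32 * (3 * 2) ≤ Nat.card Q3 :=
    card_ge_of_chk (x := 8) (L := [s7, s8, s9]) in7 (mem3 in7 in8 in9) (C := oc3) (by decide +kernel)
      (by decide +kernel) h4
  have h2 : 60 * (32 * (3 * 2)) ≤ Nat.card Q2 :=
    card_ge_of_chk (x := 3) (L := [s5, s6]) in5 (mem2 in5 in6) (C := oc2) (by decide +kernel)
      (by decide +kernel) h3
  have h1 : 77 * (60 * (32 * (3 * 2))) ≤ Nat.card Q1 :=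
    card_ge_of_chk (x := 1) (L := [s3, s4]) in3 (mem2 in3 in4) (C := oc1) (by decide +kernel)
      (by decide +kernel) h2
  have h0 : 100 * (77 * (60 * (32 * (3 * 2)))) ≤ Nat.card Q :=
    card_ge_of_chk (x := 0) (L := [HN.HS100.tX, HN.HS100.tY, tW]) inX (mem3 inX inY inW) (C := oc0) (by decide +kernel)
      (by decide +kernel) h1
  rw [Cfsg.Agent.HN.AutBound.card_Q] at h0
  norm_num at h0

theorem one_of_okB {g : Perm (Fin 100)} {L : List ℕ} {k : ℕ} (hgQ : g ∈ Q) (hg : Tl g L) (h : okB L k = true) :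
    g ^ k = 1 := by
  have h1 : band (Nat.beq (it7 L 0 k) 0) (band (Nat.beq (it7 L 1 k) 1) (band (Nat.beq (it7 L 3 k) 3)
      (band (Nat.beq (it7 L 8 k) 8) (band (Nat.beq (it7 L 2 k) 2) true)))) = true := h
  simp only [band_eq_true] at h1
  obtain ⟨h0, h1, h3, h8, h2, -⟩ := h1
  exact base_triv (Q.pow_mem hgQ k) (Fin.ext ((hg.pow k 0).trans (Nat.eq_of_beq_eq_true h0)))
    (Fin.ext ((hg.pow k 1).trans (Nat.eq_of_beq_eq_true h1))) (Fin.ext ((hg.pow k 3).trans (Nat.eq_of_beq_eq_true h3)))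
    (Fin.ext ((hg.pow k 8).trans (Nat.eq_of_beq_eq_true h8))) (Fin.ext ((hg.pow k 2).trans (Nat.eq_of_beq_eq_true h2)))

/-- the order is 1, 2, 3 or 5 -/
def Sm (g : Perm (Fin 100)) : Prop := g ^ 1 = 1 ∨ g ^ 2 = 1 ∨ g ^ 3 = 1 ∨ g ^ 5 = 1

theorem Sm.conj {g : Perm (Fin 100)} (h : Sm g) (a : Perm (Fin 100)) : Sm (a * g * a⁻¹) := by
  have key : ∀ k, g ^ k = 1 → (a * g * a⁻¹) ^ k = 1 := fun k hk => by rw [conj_pow, hk]; group
  exact h.imp (key 1) fun h => h.imp (key 2) fun h => h.imp (key 3) (key 5)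

theorem sm_of_okR {g : Perm (Fin 100)} {L : List ℕ} (hgQ : g ∈ Q) (hg : Tl g L) (h : okR L = true) : Sm g := by
  unfold okR at h
  cases h1 : okB L 1 with
  | true => exact Or.inl (one_of_okB hgQ hg h1)
  | false =>
    rw [h1, cond_false] at h
    cases h2 : okB L 2 with
    | true => exact Or.inr (Or.inl (one_of_okB hgQ hg h2))
    | false =>
      rw [h2, cond_false] at h
      cases h3 : okB L 3 with
      | true => exact Or.inr (Or.inr (Or.inl (one_of_okB hgQ hg h3)))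
      | false =>
        rw [h3, cond_false] at h
        exact Or.inr (Or.inr (Or.inr (one_of_okB hgQ hg h)))

/-! ### the elements `u`, `y`, `x` -/

/-- of order 4 -/
noncomputable def gu : Perm (Fin 100) := gb ^ 3
/-- of order 15 -/
noncomputable def gy : Perm (Fin 100) := gb * ga * gb ^ 9 * ga
/-- of order 8 -/
noncomputable def gx : Perm (Fin 100) := gb * ga * gb ^ 8 * ga

theorem gu_mem : gu ∈ Q := Q.pow_mem gb_mem 3
theorem gy_mem : gy ∈ Q := Q.mul_mem (Q.mul_mem (Q.mul_mem gb_mem ga_mem) (Q.pow_mem gb_mem 9)) ga_mem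
theorem gx_mem : gx ∈ Q := Q.mul_mem (Q.mul_mem (Q.mul_mem gb_mem ga_mem) (Q.pow_mem gb_mem 8)) ga_mem

/-- repeated lists -/
noncomputable def rep (L : List ℕ) (k : ℕ) : List ℕ := Nat.rec [] (fun _ ih => L ++ ih) k

theorem Tl.rep {g : Perm (Fin 100)} {L : List ℕ} (hg : Tl g L) (k : ℕ) : Tl (g ^ k) (rep L k) := by
  induction k with
  | zero => exact Tl.one
  | succ k ih =>
    rw [pow_succ]
    exact hg.mul ih

theorem tb_gu : Tb gu (U 0) := (tb_gb.tl.rep 3).tb (by decide +kernel)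

theorem tb_gy : Tb gy (yy 1) :=
  (tb_ga.tl.mul ((tb_gb.tl.rep 9).mul (tb_ga.tl.mul tb_gb.tl))).tb (by decide +kernel)

theorem tb_gx : Tb gx (xx 1) :=
  (tb_ga.tl.mul ((tb_gb.tl.rep 8).mul (tb_ga.tl.mul tb_gb.tl))).tb (by decide +kernel)

theorem tb_gy_pow : ∀ a < 15, Tb (gy ^ a) (yy a) := by
  intro a ha
  induction a with
  | zero =>
    intro i
    exact (Nat.eq_of_beq_eq_true ((allB_iff _ _).1 chkY0 i i.2)).symm
  | succ a ih =>
    intro i
    have h1 := Nat.eq_of_beq_eq_true ((allB_iff _ _).1 ((allB_iff _ _).1 chkYP a (by omega)) i i.2)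
    rw [pow_succ', Perm.mul_apply, tb_gy, ih (by omega), h1]

theorem tb_gx_pow : ∀ a < 8, Tb (gx ^ a) (xx a) := by
  intro a ha
  induction a with
  | zero =>
    intro i
    exact (Nat.eq_of_beq_eq_true ((allB_iff _ _).1 chkX0 i i.2)).symm
  | succ a ih =>
    intro i
    have h1 := Nat.eq_of_beq_eq_true ((allB_iff _ _).1 ((allB_iff _ _).1 chkXP a (by omega)) i i.2)
    rw [pow_succ', Perm.mul_apply, tb_gx, ih (by omega), h1]

theorem gx_pow_eight : gx ^ 8 = 1 := by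
  refine Equiv.ext fun i => Fin.ext ?_
  have h1 := Nat.eq_of_beq_eq_true ((allB_iff _ _).1 chkX8 i i.2)
  rw [pow_succ', Perm.mul_apply, tb_gx, tb_gx_pow 7 (by norm_num), h1]
  rfl

theorem gu_pow_four : gu ^ 4 = 1 := by
  refine Equiv.ext fun i => Fin.ext ?_
  rw [tb_gu.tl.pow, Nat.eq_of_beq_eq_true ((allB_iff _ _).1 chkU4 i i.2)]
  rfl

/-- the class of `u` and of its inverse -/
def C4 (s : Perm (Fin 100)) : Prop := ∃ g ∈ Q, g * gu * g⁻¹ = s ∨ g * gu⁻¹ * g⁻¹ = s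

theorem C4.inv {s : Perm (Fin 100)} (h : C4 s) : C4 s⁻¹ := by
  obtain ⟨g, hg, rfl | rfl⟩ := h
  · exact ⟨g, hg, Or.inr (by group)⟩
  · exact ⟨g, hg, Or.inl (by group)⟩

theorem C4.conj {s a : Perm (Fin 100)} (h : C4 s) (ha : a ∈ Q) : C4 (a * s * a⁻¹) := by
  obtain ⟨g, hg, rfl | rfl⟩ := h
  · exact ⟨a * g, Q.mul_mem ha hg, Or.inl (by group)⟩
  · exact ⟨a * g, Q.mul_mem ha hg, Or.inr (by group)⟩

theorem C4.inS {s : Perm (Fin 100)} (h : C4 s) : InS s := by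
  have h0 : InS gu := ⟨0, by norm_num, Or.inl tb_gu⟩
  obtain ⟨g, hg, rfl | rfl⟩ := h
  · exact conj_mem hg _ h0
  · exact conj_mem hg _ h0.inv

theorem C4.pow_four {s : Perm (Fin 100)} (h : C4 s) : s ^ 4 = 1 := by
  obtain ⟨g, hg, rfl | rfl⟩ := h
  · rw [conj_pow, gu_pow_four]; group
  · rw [conj_pow, inv_pow, gu_pow_four]; group

theorem C4.mem {s : Perm (Fin 100)} (h : C4 s) : s ∈ Q := by
  obtain ⟨g, hg, rfl | rfl⟩ := h
  · exact Q.mul_mem (Q.mul_mem hg gu_mem) (Q.inv_mem hg)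
  · exact Q.mul_mem (Q.mul_mem hg (Q.inv_mem gu_mem)) (Q.inv_mem hg)

theorem C4.inv_eq {s : Perm (Fin 100)} (h : C4 s) : s⁻¹ = s ^ 3 := by
  have h1 := h.pow_four
  rw [pow_succ] at h1
  exact (eq_inv_of_mul_eq_one_left h1).symm

theorem C4.tl_inv {s : Perm (Fin 100)} (h : C4 s) {P : ℕ} (hs : Tb s P) : Tl s⁻¹ [P, P, P] := by
  rw [h.inv_eq]
  exact hs.tl.rep 3

/-! ### the first step -/

theorem W1_mem (u k : ℕ) : ∀ P ∈ W1 u k, P = u ∨ ∃ j < 15, P = yy j := by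
  unfold W1
  split <;>
    repeat' first
      | exact fun _ h => absurd h List.not_mem_nil
      | refine List.forall_mem_cons.2 ⟨?_, ?_⟩
      | exact Or.inl rfl
      | exact Or.inr ⟨_, by norm_num, rfl⟩

theorem inL_iff {i : ℕ} {L : List ℕ} : inL i L = true ↔ i ∈ L := by
  induction L with
  | nil => simp [inL]
  | cons a L ih =>
    have h1 : inL i (a :: L) = cond (Nat.beq i a) true (inL i L) := rfl
    rw [h1]
    cases h : Nat.beq i a with
    | true => simp [Nat.eq_of_beq_eq_true h]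
    | false =>
      rw [cond_false, ih, List.mem_cons]
      constructor
      · exact Or.inr
      · rintro (rfl | h2)
        · rw [Nat.beq_refl] at h; exact absurd h (by simp)
        · exact h2

theorem exc_idx : ∀ i ∈ exc, ∃ a < 15, getT 0 exc a = i := by decide +kernel

theorem step1 {K : Subgroup (Perm (Fin 100))} (h7 : ∀ g ∈ K, ¬ 7 ∣ orderOf g) (h11 : ∀ g ∈ K, ¬ 11 ∣ orderOf g)
    (hy : gy ∈ K) {s : Perm (Fin 100)} (hs : s ∈ K) {i : ℕ} (hi : i < 5775) (hsi : Tb s (U i)) :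
    ∃ a < 15, Tb s (U (getT 0 exc a)) := by
  have h1 := (allB_iff _ _).1 chkC1 i hi
  unfold okC1 at h1
  cases hx : inL i exc with
  | true =>
    obtain ⟨a, ha, hai⟩ := exc_idx i (inL_iff.1 hx)
    exact ⟨a, ha, by rwa [hai]⟩
  | false =>
    exfalso
    rw [hx, cond_false, band_eq_true] at h1
    have hp : Nat.land (Nat.shiftRight (l14 C1 i) 1) 127 < 100 := by
      have := h1.1
      rwa [Nat.blt_eq] at this
    obtain ⟨g, hgK, hg⟩ := exists_tl (K := K) (W1 (U i) (Nat.shiftRight (l14 C1 i) 8)) (fun P hP => by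
      rcases W1_mem _ _ P hP with rfl | ⟨j, hj, rfl⟩
      · exact ⟨s, hs, hsi⟩
      · exact ⟨gy ^ j, K.pow_mem hy j, tb_gy_pow j hj⟩)
    cases hb : Nat.beq (Nat.land (l14 C1 i) 1) 0 with
    | true =>
      rw [hb, cond_true] at h1
      exact h7 g hgK (dvd_of_okK (by norm_num) hp hg h1.2)
    | false =>
      rw [hb, cond_false] at h1
      exact h11 g hgK (dvd_of_okK (by norm_num) hp hg h1.2)

theorem step1' {K : Subgroup (Perm (Fin 100))} (h7 : ∀ g ∈ K, ¬ 7 ∣ orderOf g) (h11 : ∀ g ∈ K, ¬ 11 ∣ orderOf g)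
    (hy : gy ∈ K) {s : Perm (Fin 100)} (hs : s ∈ K) (hc : C4 s) :
    ∃ a < 15, Tb s (U (getT 0 exc a)) ∨ Tb s⁻¹ (U (getT 0 exc a)) := by
  obtain ⟨i, hi, h | h⟩ := hc.inS
  · obtain ⟨a, ha, h1⟩ := step1 h7 h11 hy hs hi h
    exact ⟨a, ha, Or.inl h1⟩
  · obtain ⟨a, ha, h1⟩ := step1 h7 h11 hy (K.inv_mem hs) hi h
    exact ⟨a, ha, Or.inr h1⟩

theorem step1_tl {K : Subgroup (Perm (Fin 100))} (h7 : ∀ g ∈ K, ¬ 7 ∣ orderOf g) (h11 : ∀ g ∈ K, ¬ 11 ∣ orderOf g)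
    (hy : gy ∈ K) {s : Perm (Fin 100)} (hs : s ∈ K) (hc : C4 s) :
    ∃ a < 30, Tl s (sg (U (getT 0 exc (Nat.shiftRight a 1))) (Nat.land a 1)) := by
  obtain ⟨a, ha, h | h⟩ := step1' h7 h11 hy hs hc
  · refine ⟨2 * a, by omega, ?_⟩
    have h1 : Nat.shiftRight (2 * a) 1 = a := by
      change (2 * a) >>> 1 = a
      rw [Nat.shiftRight_eq_div_pow]; omega
    have h2 : Nat.land (2 * a) 1 = 0 := by
      change (2 * a) &&& 1 = 0
      rw [Nat.and_one_is_mod]; omega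
    rw [h1, h2]
    exact h.tl
  · refine ⟨2 * a + 1, by omega, ?_⟩
    have h1 : Nat.shiftRight (2 * a + 1) 1 = a := by
      change (2 * a + 1) >>> 1 = a
      rw [Nat.shiftRight_eq_div_pow]; omega
    have h2 : Nat.land (2 * a + 1) 1 = 1 := by
      change (2 * a + 1) &&& 1 = 1
      rw [Nat.and_one_is_mod]; omega
    rw [h1, h2]
    have h3 := hc.inv.tl_inv h
    rwa [inv_inv] at h3

theorem step1_pair {K : Subgroup (Perm (Fin 100))} (h7 : ∀ g ∈ K, ¬ 7 ∣ orderOf g) (h11 : ∀ g ∈ K, ¬ 11 ∣ orderOf g)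
    (hy : gy ∈ K) {s t : Perm (Fin 100)} (hs : s ∈ K) (hc : C4 s) (ht : t ∈ K) (hd : C4 t) : Sm (s * t) := by
  obtain ⟨a, ha, h1⟩ := step1_tl h7 h11 hy hs hc
  obtain ⟨b, hb, h2⟩ := step1_tl h7 h11 hy ht hd
  have h3 := (allB_iff _ _).1 ((allB_iff _ _).1 chkX b hb) a ha
  exact sm_of_okR (Q.mul_mem hc.mem hd.mem) (h2.mul h1) h3

theorem step1_not {K : Subgroup (Perm (Fin 100))} (h7 : ∀ g ∈ K, ¬ 7 ∣ orderOf g) (h11 : ∀ g ∈ K, ¬ 11 ∣ orderOf g)
    (hy : gy ∈ K) {s : Perm (Fin 100)} (hs : s ∈ K) (hc : C4 s) : gy * s * gy⁻¹ ≠ s ∧ gy * s * gy⁻¹ ≠ s⁻¹ := by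
  have key : ∀ t : Perm (Fin 100), (∃ a < 15, Tb t (U (getT 0 exc a))) →
      gy * t * gy⁻¹ ≠ t ∧ gy * t * gy⁻¹ ≠ t⁻¹ := by
    rintro t ⟨a, ha, h⟩
    have h1 := (allB_iff _ _).1 chkY a ha
    unfold okY at h1
    cases h2 : okE (yy 1) (U (getT 0 exc a)) (U (getT 0 exc a)) with
    | true => rw [h2] at h1; exact absurd h1 (by simp)
    | false =>
      rw [h2, cond_false] at h1
      cases h3 : okO (yy 1) (U (getT 0 exc a)) (U (getT 0 exc a)) with
      | true => rw [h3] at h1; exact absurd h1 (by simp)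
      | false =>
        constructor
        · intro hcon
          rw [(okE_iff tb_gy h).2 (by rw [hcon]; exact h)] at h2
          exact absurd h2 (by simp)
        · intro hcon
          rw [(okO_iff tb_gy h).2 (by rw [hcon, inv_inv]; exact h)] at h3
          exact absurd h3 (by simp)
  obtain ⟨a, ha, h | h⟩ := step1' h7 h11 hy hs hc
  · exact key s ⟨a, ha, h⟩
  · obtain ⟨h1, h2⟩ := key s⁻¹ ⟨a, ha, h⟩
    constructor
    · intro hcon
      apply h1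
      have h3 : gy * s⁻¹ * gy⁻¹ = (gy * s * gy⁻¹)⁻¹ := by group
      rw [h3, hcon]
    · intro hcon
      apply h2
      have h3 : gy * s⁻¹ * gy⁻¹ = (gy * s * gy⁻¹)⁻¹ := by group
      rw [h3, hcon]

/-! ### the second step -/

theorem T2_mem (k : ℕ) : ∀ a ∈ T2 k, (1 ≤ a ∧ a ≤ 7) ∨ a = 8 := by
  unfold T2
  split <;> decide

theorem fwd_bwd {K : Subgroup (Perm (Fin 100))} (hx : gx ∈ K) {s : Perm (Fin 100)} (hs : s ∈ K) (hc : C4 s) {P : ℕ}
    (hsP : Tb s P) : ∀ w : List ℕ, (∀ a ∈ w, (1 ≤ a ∧ a ≤ 7) ∨ a = 8) →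
    ∃ F ∈ K, F ∈ Q ∧ Tl F (fwd P w) ∧ Tl F⁻¹ (bwd P w) := by
  intro w
  induction w with
  | nil => exact fun _ => ⟨1, K.one_mem, Q.one_mem, Tl.one, by rw [inv_one]; exact Tl.one⟩
  | cons a w ih =>
    intro hw
    obtain ⟨F, hFK, hFQ, hF1, hF2⟩ := ih fun b hb => hw b (List.mem_cons_of_mem _ hb)
    have h1 : ∃ X ∈ K, X ∈ Q ∧ Tb X (tk P a) ∧ Tl X⁻¹ (tki P a) := by
      rcases hw a List.mem_cons_self with ⟨ha1, ha2⟩ | rfl
      · have h8 : Nat.beq a 8 = false := by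
          cases h : Nat.beq a 8 with
          | false => rfl
          | true => have := Nat.eq_of_beq_eq_true h; omega
        refine ⟨gx ^ a, K.pow_mem hx a, Q.pow_mem gx_mem a, ?_, ?_⟩
        · unfold tk
          rw [h8, cond_false]
          exact tb_gx_pow a (by omega)
        · unfold tki
          rw [h8, cond_false]
          have h2 : (gx ^ a)⁻¹ = gx ^ (8 - a) := by
            rw [inv_eq_iff_mul_eq_one, ← pow_add, show a + (8 - a) = 8 by omega, gx_pow_eight]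
          rw [h2]
          exact (tb_gx_pow (8 - a) (by omega)).tl
      · exact ⟨s, hs, hc.mem, hsP, hc.tl_inv hsP⟩
    obtain ⟨X, hXK, hXQ, hX1, hX2⟩ := h1
    refine ⟨F * X, K.mul_mem hFK hXK, Q.mul_mem hFQ hXQ, hX1.tl.mul hF1, ?_⟩
    rw [mul_inv_rev]
    exact hF2.mul hX2

theorem step2 {K : Subgroup (Perm (Fin 100))} (hx : gx ∈ K)
    (hp : ∀ s ∈ K, C4 s → ∀ t ∈ K, C4 t → Sm (s * t)) {s : Perm (Fin 100)} (hs : s ∈ K) (hc : C4 s) {i : ℕ}
    (hi : i < 5775) (hsi : Tb s (U i)) : i = 3789 := by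
  have h1 := (allB_iff _ _).1 chkC2 i hi
  unfold okC2 at h1
  cases hb : Nat.beq i 3789 with
  | true => exact Nat.eq_of_beq_eq_true hb
  | false =>
    exfalso
    rw [hb, cond_false, band_eq_true] at h1
    have hpt : Nat.land (l14 C2 i) 127 < 100 := by
      have := h1.1
      rwa [Nat.blt_eq] at this
    obtain ⟨F, hFK, hFQ, hF1, hF2⟩ := fwd_bwd hx hs hc hsi (T2 (Nat.shiftRight (l14 C2 i) 7)) (T2_mem _)
    have h2 : Tl (F * s * F⁻¹ * s) (W2 (U i) (Nat.shiftRight (l14 C2 i) 7)) := by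
      have h3 := hsi.tl.mul (hF2.mul (hsi.tl.mul hF1))
      exact h3
    obtain ⟨n1, n2, n3, n5⟩ := ne_of_okN hpt h2 h1.2
    rcases hp (F * s * F⁻¹) (K.mul_mem (K.mul_mem hFK hs) (K.inv_mem hFK)) (hc.conj hFQ) s hs hc with h | h | h | h
    · exact n1 h
    · exact n2 h
    · exact n3 h
    · exact n5 h

theorem step2' {K : Subgroup (Perm (Fin 100))} (hx : gx ∈ K)
    (hp : ∀ s ∈ K, C4 s → ∀ t ∈ K, C4 t → Sm (s * t)) {s : Perm (Fin 100)} (hs : s ∈ K) (hc : C4 s) :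
    Tb s (U 3789) ∨ Tb s⁻¹ (U 3789) := by
  obtain ⟨i, hi, h | h⟩ := hc.inS
  · have h1 := step2 hx hp hs hc hi h
    subst h1
    exact Or.inl h
  · have h1 := step2 hx hp (K.inv_mem hs) hc.inv hi h
    subst h1
    exact Or.inr h

/-- **the result** -/
theorem K_false {K : Subgroup (Perm (Fin 100))} (h7 : ∀ g ∈ K, ¬ 7 ∣ orderOf g) (h11 : ∀ g ∈ K, ¬ 11 ∣ orderOf g)
    {a b c : Perm (Fin 100)} (ha : a ∈ Q) (hb : b ∈ Q) (hc : c ∈ Q) (hy : a * gy * a⁻¹ ∈ K) (hx : b * gx * b⁻¹ ∈ K)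
    (hu : c * gu * c⁻¹ ∈ K) : False := by
  have hcomap : ∀ (d k : Perm (Fin 100)), k ∈ K.comap (MulAut.conj d).toMonoidHom ↔ d * k * d⁻¹ ∈ K := fun d k => Iff.rfl
  have ho : ∀ (d k : Perm (Fin 100)), orderOf (d * k * d⁻¹) = orderOf k := fun d k =>
    orderOf_injective (MulAut.conj d).toMonoidHom (MulAut.conj d).injective k
  have h7' : ∀ g ∈ K.comap (MulAut.conj a).toMonoidHom, ¬ 7 ∣ orderOf g := fun g hg => by
    rw [← ho a g]; exact h7 _ hg
  have h11' : ∀ g ∈ K.comap (MulAut.conj a).toMonoidHom, ¬ 11 ∣ orderOf g := fun g hg => by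
    rw [← ho a g]; exact h11 _ hg
  have hback : ∀ d ∈ Q, ∀ s ∈ K, C4 s → d⁻¹ * s * d ∈ K.comap (MulAut.conj d).toMonoidHom ∧ C4 (d⁻¹ * s * d) := by
    intro d hd s hs hcs
    constructor
    · rw [hcomap]
      have : d * (d⁻¹ * s * d) * d⁻¹ = s := by group
      rwa [this]
    · have := hcs.conj (Q.inv_mem hd)
      rwa [inv_inv] at this
  have hp : ∀ s ∈ K, C4 s → ∀ t ∈ K, C4 t → Sm (s * t) := by
    intro s hs hcs t ht hct
    obtain ⟨h1, h2⟩ := hback a ha s hs hcs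
    obtain ⟨h3, h4⟩ := hback a ha t ht hct
    have h5 := (step1_pair h7' h11' hy h1 h2 h3 h4).conj a
    have h6 : a * (a⁻¹ * s * a * (a⁻¹ * t * a)) * a⁻¹ = s * t := by group
    rwa [h6] at h5
  have hp' : ∀ s ∈ K.comap (MulAut.conj b).toMonoidHom, C4 s → ∀ t ∈ K.comap (MulAut.conj b).toMonoidHom, C4 t →
      Sm (s * t) := by
    intro s hs hcs t ht hct
    have h5 : Sm (b⁻¹ * (b * s * b⁻¹ * (b * t * b⁻¹)) * b⁻¹⁻¹) := (hp _ hs (hcs.conj hb) _ ht (hct.conj hb)).conj b⁻¹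
    have h6 : b⁻¹ * (b * s * b⁻¹ * (b * t * b⁻¹)) * b⁻¹⁻¹ = s * t := by group
    rwa [h6] at h5
  set s : Perm (Fin 100) := c * gu * c⁻¹ with hs
  have hsC : C4 s := ⟨c, hc, Or.inl rfl⟩
  set y : Perm (Fin 100) := a * gy * a⁻¹ with hyd
  have hyQ : y ∈ Q := Q.mul_mem (Q.mul_mem ha gy_mem) (Q.inv_mem ha)
  have htK : y * s * y⁻¹ ∈ K := K.mul_mem (K.mul_mem hy hu) (K.inv_mem hy)
  have htC : C4 (y * s * y⁻¹) := hsC.conj hyQ
  obtain ⟨h1, h2⟩ := hback b hb s hu hsC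
  obtain ⟨h3, h4⟩ := hback b hb _ htK htC
  have h5 := step2' hx hp' h1 h2
  have h6 := step2' hx hp' h3 h4
  -- the two elements agree up to inversion
  have h7 : y * s * y⁻¹ = s ∨ y * s * y⁻¹ = s⁻¹ := by
    have hcancel : ∀ p q : Perm (Fin 100), b⁻¹ * p * b = b⁻¹ * q * b → p = q := by
      intro p q hpq
      simpa using hpq
    rcases h5 with h5 | h5 <;> rcases h6 with h6 | h6
    · exact Or.inl (hcancel _ _ (h6.unique h5))
    · right
      have h8 := h6.unique h5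
      apply hcancel
      have h9 : b⁻¹ * s⁻¹ * b = (b⁻¹ * s * b)⁻¹ := by group
      rw [h9, ← h8, inv_inv]
    · right
      have h8 := h6.unique h5
      apply hcancel
      have h9 : b⁻¹ * s⁻¹ * b = (b⁻¹ * s * b)⁻¹ := by group
      rw [h9, ← h8]
    · left
      exact hcancel _ _ (inv_injective (h6.unique h5))
  obtain ⟨h8, h9⟩ := hback a ha s hu hsC
  obtain ⟨h10, h11⟩ := step1_not h7' h11' hy h8 h9
  have h12 : gy * (a⁻¹ * s * a) * gy⁻¹ = a⁻¹ * (y * s * y⁻¹) * a := by rw [hyd]; group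
  rw [h12] at h10 h11
  rcases h7 with h7 | h7
  · exact h10 (by rw [h7])
  · exact h11 (by rw [h7]; group)

end Cfsg.Agent.H461.Cov.HS
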