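import Cfsg.Agent.H461.Cov.HSChkA
import Cfsg.Agent.H461.Cov.HSChkB
import Cfsg.Agent.H461.Cov.HSChkC
import Cfsg.Agent.H291.DG.HS
import Cfsg.Agent.H852.PSq.HSData
import Cfsg.Agent.HN.AutBound

/-!
# S2499, HS: the soundness of the checks (helper461)
-/

set_option autoImplicit false
set_option maxRecDepth 100000

namespace Cfsg.Agent.H461.Cov.HS

open Subgroup Equiv
open Cfsg.Agent.SporadicA.PermTab
open Cfsg.Agent.HN.HS100 (Q)

theorem pinv_apply (g : Perm (Fin 100)) (i : Fin 100) : g⁻¹ (g i) = i := g.symm_apply_apply i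

theorem papply_inv (g : Perm (Fin 100)) (i : Fin 100) : g (g⁻¹ i) = i := g.apply_symm_apply i

/-- the permutation has the table `P` -/
def Tb (g : Perm (Fin 100)) (P : ℕ) : Prop := ∀ i : Fin 100, (g i : ℕ) = l7 P i

/-- the permutation acts as the list of tables (the first one applied first) -/
def Tl (g : Perm (Fin 100)) (L : List ℕ) : Prop := ∀ i : Fin 100, (g i : ℕ) = ev7 L i

theorem Tb.tl {g : Perm (Fin 100)} {P : ℕ} (h : Tb g P) : Tl g [P] := h

theorem Tb.unique {g h : Perm (Fin 100)} {P : ℕ} (h1 : Tb g P) (h2 : Tb h P) : g = h :=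
  Equiv.ext fun i => Fin.ext ((h1 i).trans (h2 i).symm)

theorem ev7_append (L M : List ℕ) (j : ℕ) : ev7 (L ++ M) j = ev7 M (ev7 L j) := by
  induction L generalizing j with
  | nil => rfl
  | cons P L ih => exact ih (l7 P j)

theorem Tl.mul {g h : Perm (Fin 100)} {L M : List ℕ} (hg : Tl g L) (hh : Tl h M) : Tl (h * g) (L ++ M) := by
  intro i
  rw [Perm.mul_apply, hh, hg, ev7_append]

theorem Tl.one : Tl 1 [] := fun _ => rfl

theorem it7_succ (L : List ℕ) (p k : ℕ) : it7 L p (k + 1) = ev7 L (it7 L p k) := rfl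

theorem Tl.pow {g : Perm (Fin 100)} {L : List ℕ} (hg : Tl g L) (k : ℕ) (i : Fin 100) :
    ((g ^ k) i : ℕ) = it7 L i k := by
  induction k with
  | zero => rfl
  | succ k ih => rw [pow_succ', Perm.mul_apply, hg, ih, it7_succ]

theorem Tl.tb {g : Perm (Fin 100)} {L : List ℕ} {P : ℕ} (hg : Tl g L)
    (h : allB (fun i => Nat.beq (ev7 L i) (l7 P i)) 100 = true) : Tb g P := fun i =>
  (hg i).trans (Nat.eq_of_beq_eq_true ((allB_iff _ _).1 h i i.2))

/-- tables of elements of `K` -/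
theorem exists_tl {K : Subgroup (Perm (Fin 100))} (L : List ℕ) (h : ∀ P ∈ L, ∃ g ∈ K, Tb g P) : ∃ g ∈ K, Tl g L := by
  induction L with
  | nil => exact ⟨1, K.one_mem, Tl.one⟩
  | cons P L ih =>
    obtain ⟨g, hg, hgi⟩ := ih fun R hR => h R (List.mem_cons_of_mem _ hR)
    obtain ⟨k, hk, hki⟩ := h P List.mem_cons_self
    exact ⟨g * k, K.mul_mem hg hk, (hki.tl).mul hgi⟩

/-- a cycle of prime length -/
theorem dvd_of_okK {g : Perm (Fin 100)} {L : List ℕ} {p k : ℕ} (hk : k.Prime) (hp : p < 100) (hg : Tl g L)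
    (h : okK L p k = true) : k ∣ orderOf g := by
  unfold okK at h
  rw [band_eq_true, nbeq_iff] at h
  have h1 : (g ^ k) ⟨p, hp⟩ = ⟨p, hp⟩ := Fin.ext ((hg.pow k ⟨p, hp⟩).trans (Nat.eq_of_beq_eq_true h.1))
  by_contra hcon
  obtain ⟨m, hm⟩ := exists_pow_eq_self_of_coprime ((Nat.Prime.coprime_iff_not_dvd hk).2 hcon)
  apply h.2
  rw [← hg ⟨p, hp⟩]
  have h2 : ∀ m : ℕ, ((g ^ k) ^ m) ⟨p, hp⟩ = ⟨p, hp⟩ := fun m => by
    induction m with
    | zero => rfl
    | succ m ih => rw [pow_succ, Perm.mul_apply, h1, ih]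
  have h3 := h2 m
  rw [hm] at h3
  rw [h3]

theorem ne_of_okN {g : Perm (Fin 100)} {L : List ℕ} {p : ℕ} (hp : p < 100) (hg : Tl g L) (h : okN L p = true) :
    g ^ 1 ≠ 1 ∧ g ^ 2 ≠ 1 ∧ g ^ 3 ≠ 1 ∧ g ^ 5 ≠ 1 := by
  unfold okN at h
  rw [band_eq_true, band_eq_true, band_eq_true, nbeq_iff, nbeq_iff, nbeq_iff, nbeq_iff] at h
  have key : ∀ k, it7 L p k ≠ p → g ^ k ≠ 1 := by
    intro k hk hgk
    apply hk
    rw [← hg.pow k ⟨p, hp⟩, hgk]
    rfl
  exact ⟨key 1 h.1, key 2 h.2.1, key 3 h.2.2.1, key 5 h.2.2.2⟩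

theorem okE_iff {g s : Perm (Fin 100)} {G P R : ℕ} (hg : Tb g G) (hs : Tb s P) :
    okE G P R = true ↔ Tb (g * s * g⁻¹) R := by
  unfold okE
  rw [allB_iff]
  constructor
  · intro h i
    obtain ⟨j, rfl⟩ : ∃ j, g j = i := ⟨g⁻¹ i, g.apply_symm_apply i⟩
    have h1 := Nat.eq_of_beq_eq_true (h j j.2)
    have h2 : (g * s * g⁻¹) (g j) = g (s j) := by
      rw [Perm.mul_apply, Perm.mul_apply, pinv_apply]
    rw [h2, hg, hs, hg, h1]
  · intro h i hi
    have h1 := h (g ⟨i, hi⟩)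
    have h2 : (g * s * g⁻¹) (g ⟨i, hi⟩) = g (s ⟨i, hi⟩) := by
      rw [Perm.mul_apply, Perm.mul_apply, pinv_apply]
    rw [h2, hg, hs, hg] at h1
    rw [← h1]
    exact Nat.beq_refl _

theorem okO_iff {g s : Perm (Fin 100)} {G P R : ℕ} (hg : Tb g G) (hs : Tb s P) :
    okO G P R = true ↔ Tb (g * s * g⁻¹)⁻¹ R := by
  unfold okO
  rw [allB_iff]
  have h2 : ∀ j : Fin 100, (g * s * g⁻¹)⁻¹ (g (s j)) = g j := by
    intro j
    rw [Perm.inv_eq_iff_eq, Perm.mul_apply, Perm.mul_apply, pinv_apply]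
  constructor
  · intro h i
    obtain ⟨j, rfl⟩ : ∃ j, g (s j) = i := ⟨s⁻¹ (g⁻¹ i), by
      rw [papply_inv, papply_inv]⟩
    have h1 := Nat.eq_of_beq_eq_true (h j j.2)
    rw [h2, hg j, hg (s j), hs, h1]
  · intro h i hi
    have h1 := h (g (s ⟨i, hi⟩))
    rw [h2, hg ⟨i, hi⟩, hg (s ⟨i, hi⟩), hs] at h1
    rw [← h1]
    exact Nat.beq_refl _

/-- one of the elements or its inverse -/
def InS (g : Perm (Fin 100)) : Prop := ∃ i < 5775, Tb g (U i) ∨ Tb g⁻¹ (U i)

theorem InS.inv {g : Perm (Fin 100)} (h : InS g) : InS g⁻¹ := by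
  obtain ⟨i, hi, h | h⟩ := h
  · exact ⟨i, hi, Or.inr (by rwa [inv_inv])⟩
  · exact ⟨i, hi, Or.inl h⟩

theorem conj_gen {G J : ℕ} {g : Perm (Fin 100)} (hg : Tb g G) (h : allB (okJ G J) 5775 = true)
    {s : Perm (Fin 100)} (hs : InS s) : InS (g * s * g⁻¹) := by
  have key : ∀ s : Perm (Fin 100), (∃ i < 5775, Tb s (U i)) → InS (g * s * g⁻¹) := by
    rintro s ⟨i, hi, hs⟩
    have h1 := (allB_iff _ _).1 h i hi
    unfold okJ at h1
    rw [band_eq_true] at h1
    have h2 : Nat.shiftRight (l14 J i) 1 < 5775 := by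
      have := h1.1
      rwa [Nat.blt_eq] at this
    cases hb : Nat.beq (Nat.land (l14 J i) 1) 0 with
    | true =>
      rw [hb, cond_true] at h1
      exact ⟨_, h2, Or.inl ((okE_iff hg hs).1 h1.2)⟩
    | false =>
      rw [hb, cond_false] at h1
      exact ⟨_, h2, Or.inr ((okO_iff hg hs).1 h1.2)⟩
  obtain ⟨i, hi, hs | hs⟩ := hs
  · exact key s ⟨i, hi, hs⟩
  · have h1 := (key s⁻¹ ⟨i, hi, hs⟩).inv
    have h2 : (g * s⁻¹ * g⁻¹)⁻¹ = g * s * g⁻¹ := by group
    rwa [h2] at h1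

/-! ### the generators -/

open Cfsg.Agent.H994.TwoGen.Words Cfsg.Agent.HSType.Letters Cfsg.Agent.H291.DG.HS in
/-- the first generator -/
noncomputable def ga : Perm (Fin 100) := val gl wX

open Cfsg.Agent.H994.TwoGen.Words Cfsg.Agent.HSType.Letters Cfsg.Agent.H291.DG.HS in
/-- the second generator -/
noncomputable def gb : Perm (Fin 100) := val gl wY

theorem closure_eq : closure ({ga, gb} : Set (Perm (Fin 100))) = Q := Cfsg.Agent.H291.DG.HS.H_eq

open Cfsg.Agent.H994.TwoGen.Words Cfsg.Agent.HSType.Letters Cfsg.Agent.H291.DG.HS in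
theorem tb_ga : Tb ga tA := by
  have h : allB (fun x => Nat.beq (evp wX x) (l7 tA x)) 100 = true := by decide +kernel
  exact fun i => (ev_val wX i).trans (Nat.eq_of_beq_eq_true ((allB_iff _ _).1 h i i.2))

open Cfsg.Agent.H994.TwoGen.Words Cfsg.Agent.HSType.Letters Cfsg.Agent.H291.DG.HS in
theorem tb_gb : Tb gb tB := by
  have h : allB (fun x => Nat.beq (evp wY x) (l7 tB x)) 100 = true := by decide +kernel
  exact fun i => (ev_val wY i).trans (Nat.eq_of_beq_eq_true ((allB_iff _ _).1 h i i.2))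

theorem ga_mem : ga ∈ Q := by
  rw [← closure_eq]
  exact subset_closure (Or.inl rfl)

theorem gb_mem : gb ∈ Q := by
  rw [← closure_eq]
  exact subset_closure (Or.inr rfl)

theorem conj_mem {g : Perm (Fin 100)} (hg : g ∈ Q) : ∀ s : Perm (Fin 100), InS s → InS (g * s * g⁻¹) := by
  rw [← closure_eq] at hg
  induction hg using Subgroup.closure_induction with
  | mem g hg =>
    rcases hg with rfl | rfl
    · exact fun s hs => conj_gen tb_ga chkA hs
    · exact fun s hs => conj_gen tb_gb chkB hs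
  | one => exact fun s hs => by simpa using hs
  | mul a b _ _ iha ihb =>
    intro s hs
    have h1 := iha _ (ihb s hs)
    have h2 : a * (b * s * b⁻¹) * a⁻¹ = a * b * s * (a * b)⁻¹ := by group
    rwa [h2] at h1
  | inv a _ iha =>
    intro s hs
    let f : {s : Perm (Fin 100) // InS s} → {s : Perm (Fin 100) // InS s} := fun s => ⟨a * s.1 * a⁻¹, iha _ s.2⟩
    have hf : Function.Injective f := by
      intro s t hst
      have h1 : a * s.1 * a⁻¹ = a * t.1 * a⁻¹ := congrArg Subtype.val hst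
      exact Subtype.ext (by simpa using h1)
    obtain ⟨t, ht⟩ := Finite.surjective_of_injective hf ⟨s, hs⟩
    have h1 : a * t.1 * a⁻¹ = s := congrArg Subtype.val ht
    have h2 : a⁻¹ * s * a⁻¹⁻¹ = t.1 := by rw [← h1]; group
    rw [h2]
    exact t.2

end Cfsg.Agent.H461.Cov.HS
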